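import Mathlib
import Cfsg.Agent.Lib.Helper90.CoprimeAbelian

set_option autoImplicit false

namespace Cfsg.Agent.Lib.Helper65

open Cfsg.Agent.Lib.Helper90
open scoped commutatorElement

/-- Abelian case: `P` a `p`-group normalizing the `p'`-group `Q`, both acting on the abelian `p`-group `V`;
if the fixed points of `P` are fixed by `Q` then `Q` acts trivially. -/
theorem semidirect_abelian_case {V Γ : Type*} [Group V] [Finite V] [Group Γ] [Finite Γ]
    (hcomm : ∀ x y : V, x * y = y * x)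
    {p : ℕ} [Fact p.Prime] (hV : IsPGroup p V) (ψ : Γ →* MulAut V) (P Q : Subgroup Γ)
    (hP : IsPGroup p P) (hQ : (Nat.card Q).Coprime p) (hPQ : P ≤ Subgroup.normalizer (Q : Set Γ))
    (hC : ∀ v : V, (∀ α ∈ P, ψ α v = v) → ∀ β ∈ Q, ψ β v = v) : ∀ β ∈ Q, ∀ v : V, ψ β v = v := by
  have hp : p.Prime := Fact.out
  set A := Q.map ψ with hA
  obtain ⟨n, hn⟩ := hV.exists_card_eq
  have hcop : (Nat.card V).Coprime (Nat.card A) := by
    rw [hn]
    exact ((Nat.Coprime.of_dvd_left (Subgroup.card_map_dvd _ _) hQ).pow_right n).symm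
  obtain ⟨hF, -⟩ := fitting_abelian hcomm A hcop
  set W := commSub A with hWdef
  have hinv : ∀ α ∈ P, ∀ w ∈ W, ψ α w ∈ W := by
    intro α hα w hw
    induction hw using Subgroup.closure_induction with
    | mem y hy =>
      obtain ⟨_, ⟨β, hβ, rfl⟩, x, rfl⟩ := hy
      apply Subgroup.subset_closure
      refine ⟨ψ (α * β * α⁻¹), ⟨_, (Subgroup.le_normalizer_iff.mp hPQ) α hα β hβ, rfl⟩, ψ α x, ?_⟩
      simp [map_mul]
    | one => rw [map_one]; exact W.one_mem
    | mul a b _ _ ha hb => rw [map_mul]; exact W.mul_mem ha hb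
    | inv a _ ha => rw [map_inv]; exact W.inv_mem ha
  by_cases hW : W = ⊥
  · intro β hβ v
    have : v⁻¹ * ψ β v ∈ W := Subgroup.subset_closure ⟨ψ β, ⟨β, hβ, rfl⟩, v, rfl⟩
    rw [hW, Subgroup.mem_bot] at this
    exact (inv_mul_eq_one.mp this).symm
  · exfalso
    let _ : MulAction P W :=
      { smul := fun α w => ⟨ψ α.1 w.1, hinv α.1 α.2 w.1 w.2⟩
        one_smul := fun w => Subtype.ext (by show ψ ((1 : P) : Γ) w.1 = w.1; simp)
        mul_smul := fun a b w => Subtype.ext (by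
          show ψ ((a * b : P) : Γ) w.1 = ψ a.1 (ψ b.1 w.1); simp) }
    have hdvd : p ∣ Nat.card W := by
      obtain ⟨k, hk⟩ := (hV.to_subgroup W).exists_card_eq
      rcases k with _ | k
      · exact absurd (Subgroup.card_eq_one.mp (by simpa using hk)) hW
      · rw [hk]; exact dvd_pow_self p (Nat.succ_ne_zero k)
    obtain ⟨w, hw, hne⟩ := hP.exists_fixed_point_of_prime_dvd_card_of_fixed_point W hdvd (a := 1)
      (by
        intro α
        apply Subtype.ext
        show ψ α.1 1 = 1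
        simp)
    have h1 : ∀ α ∈ P, ψ α w.1 = w.1 := fun α hα => congrArg Subtype.val (hw ⟨α, hα⟩)
    have h2 : w.1 ∈ fixedSub A ⊓ W := by
      refine ⟨?_, w.2⟩
      rintro _ ⟨β, hβ, rfl⟩
      exact hC w.1 h1 β hβ
    rw [hF, Subgroup.mem_bot] at h2
    exact hne (Subtype.ext h2.symm)

/-- Groups of class at most two. -/
class ClassTwo (G : Type*) [Group G] : Prop where
  central : ∀ x y z : G, ⁅x, y⁆ * z = z * ⁅x, y⁆

/-- The Baer trick: the underlying set of a group of class at most two with the operation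
`x * y * [y, x] ^ m`. -/
structure Baer (G : Type*) (m : ℕ) where
  /-- underlying element -/
  val : G

namespace Baer

variable {G : Type*} [Group G] {m : ℕ}

theorem ext' {x y : Baer G m} (h : x.val = y.val) : x = y := by
  cases x; cases y; simp_all

theorem comm_pow_central [ClassTwo G] (x y z : G) (k : ℕ) : ⁅x, y⁆ ^ k * z = z * ⁅x, y⁆ ^ k :=
  ((show Commute ⁅x, y⁆ z from ClassTwo.central x y z).pow_left k).eq

theorem comm_mul_left [ClassTwo G] (x y z : G) : ⁅x * y, z⁆ = ⁅x, z⁆ * ⁅y, z⁆ := by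
  have h : ⁅x * y, z⁆ = x * ⁅y, z⁆ * x⁻¹ * ⁅x, z⁆ := by
    simp only [commutatorElement_def]; group
  rw [h, ← ClassTwo.central y z x, mul_inv_cancel_right, ClassTwo.central]

theorem comm_mul_right [ClassTwo G] (x y z : G) : ⁅x, y * z⁆ = ⁅x, y⁆ * ⁅x, z⁆ := by
  have h : ⁅x, y * z⁆ = ⁅x, y⁆ * (y * ⁅x, z⁆ * y⁻¹) := by
    simp only [commutatorElement_def]; group
  rw [h, ← ClassTwo.central x z y, mul_inv_cancel_right]

theorem comm_mul_central_left [ClassTwo G] (x z a b : G) (k : ℕ) : ⁅x * ⁅a, b⁆ ^ k, z⁆ = ⁅x, z⁆ := by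
  have h : ⁅⁅a, b⁆ ^ k, z⁆ = 1 := by
    rw [commutatorElement_def, comm_pow_central, mul_assoc, mul_assoc, mul_inv_cancel_left,
      mul_inv_cancel]
  rw [comm_mul_left, h, mul_one]

theorem comm_mul_central_right [ClassTwo G] (x z a b : G) (k : ℕ) : ⁅z, x * ⁅a, b⁆ ^ k⁆ = ⁅z, x⁆ := by
  have h : ⁅z, ⁅a, b⁆ ^ k⁆ = 1 := by
    rw [commutatorElement_def, ← comm_pow_central, mul_assoc, mul_assoc, mul_inv_cancel_left,
      mul_inv_cancel]
  rw [comm_mul_right, h, mul_one]

instance [ClassTwo G] : Group (Baer G m) where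
  mul x y := ⟨x.val * y.val * ⁅y.val, x.val⁆ ^ m⟩
  one := ⟨1⟩
  inv x := ⟨x.val⁻¹⟩
  mul_assoc x y z := by
    apply ext'
    show x.val * y.val * ⁅y.val, x.val⁆ ^ m * z.val * ⁅z.val, x.val * y.val * ⁅y.val, x.val⁆ ^ m⁆ ^ m =
      x.val * (y.val * z.val * ⁅z.val, y.val⁆ ^ m) * ⁅y.val * z.val * ⁅z.val, y.val⁆ ^ m, x.val⁆ ^ m
    rw [comm_mul_central_right, comm_mul_central_left, comm_mul_right, comm_mul_left]
    have e1 : (⁅z.val, x.val⁆ * ⁅z.val, y.val⁆) ^ m = ⁅z.val, x.val⁆ ^ m * ⁅z.val, y.val⁆ ^ m :=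
      (show Commute _ _ from ClassTwo.central _ _ _).mul_pow m
    have e2 : (⁅y.val, x.val⁆ * ⁅z.val, x.val⁆) ^ m = ⁅y.val, x.val⁆ ^ m * ⁅z.val, x.val⁆ ^ m :=
      (show Commute _ _ from ClassTwo.central _ _ _).mul_pow m
    rw [e1, e2]
    calc x.val * y.val * ⁅y.val, x.val⁆ ^ m * z.val * (⁅z.val, x.val⁆ ^ m * ⁅z.val, y.val⁆ ^ m)
        = x.val * y.val * (⁅y.val, x.val⁆ ^ m * z.val) * (⁅z.val, x.val⁆ ^ m * ⁅z.val, y.val⁆ ^ m) := by
          simp only [mul_assoc]
      _ = x.val * y.val * (z.val * ⁅y.val, x.val⁆ ^ m) * (⁅z.val, x.val⁆ ^ m * ⁅z.val, y.val⁆ ^ m) := by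
          rw [comm_pow_central]
      _ = x.val * y.val * z.val * ((⁅y.val, x.val⁆ ^ m * ⁅z.val, x.val⁆ ^ m) * ⁅z.val, y.val⁆ ^ m) := by
          simp only [mul_assoc]
      _ = x.val * y.val * z.val * (⁅z.val, y.val⁆ ^ m * (⁅y.val, x.val⁆ ^ m * ⁅z.val, x.val⁆ ^ m)) := by
          rw [comm_pow_central z.val y.val]
      _ = _ := by simp only [mul_assoc]
  one_mul x := by
    apply ext'
    show 1 * x.val * ⁅x.val, 1⁆ ^ m = x.val
    simp
  mul_one x := by
    apply ext'
    show x.val * 1 * ⁅1, x.val⁆ ^ m = x.val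
    simp
  inv_mul_cancel x := by
    apply ext'
    show x.val⁻¹ * x.val * ⁅x.val, x.val⁻¹⁆ ^ m = 1
    simp [commutatorElement_def]

theorem mul_val [ClassTwo G] (x y : Baer G m) : (x * y).val = x.val * y.val * ⁅y.val, x.val⁆ ^ m := rfl

theorem mul_comm' [ClassTwo G] (h : ∀ x y : G, ⁅x, y⁆ ^ (2 * m) = ⁅x, y⁆) (x y : Baer G m) :
    x * y = y * x := by
  apply ext'
  rw [mul_val, mul_val]
  have e1 : y.val * x.val = x.val * y.val * ⁅y.val, x.val⁆ := by
    rw [← ClassTwo.central]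
    simp only [commutatorElement_def]; group
  have e2 : ⁅x.val, y.val⁆ = ⁅y.val, x.val⁆⁻¹ := (commutatorElement_inv _ _).symm
  rw [e1, e2, mul_assoc (x.val * y.val)]
  congr 1
  have e3 := h y.val x.val
  rw [two_mul, pow_add] at e3
  rw [inv_pow, eq_mul_inv_iff_mul_eq, e3]

/-- The bijection with the underlying group. -/
def equiv : Baer G m ≃ G := ⟨Baer.val, Baer.mk, fun _ => rfl, fun _ => rfl⟩

/-- Automorphisms of the group are automorphisms of the Baer structure. -/
def aut [ClassTwo G] : MulAut G →* MulAut (Baer G m) where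
  toFun φ :=
    { toFun := fun x => ⟨φ x.val⟩
      invFun := fun x => ⟨φ.symm x.val⟩
      left_inv := fun x => ext' (by simp)
      right_inv := fun x => ext' (by simp)
      map_mul' := fun x y => ext' (by
        show φ (x.val * y.val * ⁅y.val, x.val⁆ ^ m) = φ x.val * φ y.val * ⁅φ y.val, φ x.val⁆ ^ m
        rw [map_mul, map_mul, map_pow, map_commutatorElement]) }
  map_one' := by ext x; rfl
  map_mul' φ χ := by ext x; rfl

theorem aut_val [ClassTwo G] (φ : MulAut G) (x : Baer G m) : (aut φ x).val = φ x.val := rfl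

end Baer

/-- `P` a `p`-group normalizing the `p'`-group `Q`, both acting on the `p`-group `G` of class at most two and
exponent `p`, `p` odd; if the fixed points of `P` are fixed by `Q` then `Q` acts trivially. -/
theorem semidirect_class_two_case {G Γ : Type*} [Group G] [Finite G] [Group Γ] [Finite Γ]
    {p : ℕ} [Fact p.Prime] (hp2 : p ≠ 2) (hG : IsPGroup p G)
    (hcl : commutator G ≤ Subgroup.center G) (hexp : ∀ x : G, x ^ p = 1)
    (ψ : Γ →* MulAut G) (P Q : Subgroup Γ)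
    (hP : IsPGroup p P) (hQ : (Nat.card Q).Coprime p) (hPQ : P ≤ Subgroup.normalizer (Q : Set Γ))
    (hC : ∀ v : G, (∀ α ∈ P, ψ α v = v) → ∀ β ∈ Q, ψ β v = v) : ∀ β ∈ Q, ∀ v : G, ψ β v = v := by
  have hp : p.Prime := Fact.out
  have : ClassTwo G := ⟨fun x y z => by
    have h1 : ⁅x, y⁆ ∈ Subgroup.center G := by
      apply hcl
      rw [commutator_def]
      exact Subgroup.commutator_mem_commutator (Subgroup.mem_top x) (Subgroup.mem_top y)
    exact ((Subgroup.mem_center_iff.mp h1) z).symm⟩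
  obtain ⟨k, hk⟩ := hp.eq_two_or_odd'.resolve_left hp2
  set m := k + 1 with hm
  have h2m : ∀ x y : G, ⁅x, y⁆ ^ (2 * m) = ⁅x, y⁆ := by
    intro x y
    have : 2 * m = p + 1 := by omega
    rw [this, pow_succ, hexp, one_mul]
  have : Finite (Baer G m) := Finite.of_equiv G Baer.equiv.symm
  have hV : IsPGroup p (Baer G m) := by
    obtain ⟨n, hn⟩ := hG.exists_card_eq
    apply IsPGroup.of_card (n := n)
    rw [Nat.card_congr Baer.equiv, hn]
  have key := semidirect_abelian_case (V := Baer G m) (Baer.mul_comm' h2m) hV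
    ((Baer.aut (m := m)).comp ψ) P Q hP hQ hPQ (by
      intro v hv β hβ
      apply Baer.ext'
      exact hC v.val (fun α hα => congrArg Baer.val (hv α hα)) β hβ)
  intro β hβ v
  exact congrArg Baer.val (key β hβ ⟨v⟩)

end Cfsg.Agent.Lib.Helper65
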